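import Cfsg.Prelude.Def_AxialAlgebras

/-!
The local consequences of the fusion law at one Majorana axis, and the closure of the product of
two copies of the invariant vector of a dihedral orbit of axes.
-/

set_option autoImplicit false

namespace Cfsg.Agent.Lib.Sakuma

variable {V : Type*} [AddCommGroup V] [Module ℝ V] {mul : V →ₗ[ℝ] V →ₗ[ℝ] V}
  {B : LinearMap.BilinForm ℝ V}

/-- An axial vector of length one in a Majorana setting. -/
structure Axis (mul : V →ₗ[ℝ] V →ₗ[ℝ] V) (B : LinearMap.BilinForm ℝ V) (μ : V ≃ₗ[ℝ] V) (a : V) : Prop where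
  amb : Cfsg.Axial.IsMajoranaAmbient mul B
  pair : Cfsg.Axial.IsMajoranaPair mul B μ a
  norm : B a a = 1

namespace Axis

variable {μ : V ≃ₗ[ℝ] V} {a : V} (h : Axis mul B μ a)

include h

theorem idem : mul a a = a := h.pair.2.2.1.1.2.1

theorem fus {c d : ℝ} (hc : c ∈ Cfsg.Axial.majoranaSpectrum) (hd : d ∈ Cfsg.Axial.majoranaSpectrum) {u v : V}
    (hu : mul a u = c • u) (hv : mul a v = d • v) :
    mul u v ∈ Cfsg.Axial.eigenSum mul a (Cfsg.Axial.monsterLaw (1 / 4) (1 / 32) c d) :=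
  h.pair.2.2.1.1.2.2.2 c hc d hd u (Module.End.mem_eigenspace_iff.2 hu) v (Module.End.mem_eigenspace_iff.2 hv)

theorem fus00 {u v : V} (hu : mul a u = 0) (hv : mul a v = 0) : mul a (mul u v) = 0 := by
  have h' := h.fus (c := 0) (d := 0) (by simp [Cfsg.Axial.majoranaSpectrum]) (by simp [Cfsg.Axial.majoranaSpectrum])
    (hu.trans (zero_smul ℝ u).symm) (hv.trans (zero_smul ℝ v).symm)
  rw [show Cfsg.Axial.monsterLaw (1 / 4 : ℝ) (1 / 32) 0 0 = {0} by norm_num [Cfsg.Axial.monsterLaw],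
    Cfsg.Axial.eigenSum, iSup_singleton, Cfsg.Axial.eigen, Module.End.mem_eigenspace_iff, zero_smul] at h'
  exact h'

theorem fus0q {u w : V} (hu : mul a u = 0) (hw : mul a w = (1 / 4 : ℝ) • w) :
    mul a (mul u w) = (1 / 4 : ℝ) • mul u w := by
  have h' := h.fus (c := 0) (d := 1 / 4) (by simp [Cfsg.Axial.majoranaSpectrum]) (by simp [Cfsg.Axial.majoranaSpectrum])
    (hu.trans (zero_smul ℝ u).symm) hw
  rw [show Cfsg.Axial.monsterLaw (1 / 4 : ℝ) (1 / 32) 0 (1 / 4) = {1 / 4} by norm_num [Cfsg.Axial.monsterLaw],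
    Cfsg.Axial.eigenSum, iSup_singleton, Cfsg.Axial.eigen, Module.End.mem_eigenspace_iff] at h'
  exact h'

theorem orth {c : ℝ} (hc : c ≠ 1) {x : V} (hx : mul a x = c • x) : B a x = 0 := by
  have e := h.amb.2.2.2.1 a a x
  rw [h.idem, hx, map_smul, smul_eq_mul] at e
  by_contra h0
  exact hc (mul_right_cancel₀ h0 (e.trans (one_mul _).symm))

theorem fusqq {v w : V} (hv : mul a v = (1 / 4 : ℝ) • v) (hw : mul a w = (1 / 4 : ℝ) • w) :
    mul a (mul v w) = B a (mul v w) • a := by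
  have h' := h.fus (c := 1 / 4) (d := 1 / 4) (by simp [Cfsg.Axial.majoranaSpectrum]) (by simp [Cfsg.Axial.majoranaSpectrum])
    hv hw
  rw [show Cfsg.Axial.monsterLaw (1 / 4 : ℝ) (1 / 32) (1 / 4) (1 / 4) = {1, 0} by norm_num [Cfsg.Axial.monsterLaw],
    Cfsg.Axial.eigenSum, iSup_insert, iSup_singleton, Submodule.mem_sup] at h'
  obtain ⟨p, hp, r, hr, e⟩ := h'
  rw [h.pair.2.2.1.2, Submodule.mem_span_singleton] at hp
  obtain ⟨s, rfl⟩ := hp
  have hr' : mul a r = (0 : ℝ) • r := Module.End.mem_eigenspace_iff.1 hr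
  rw [← e, map_add, map_smul, h.idem, hr', map_add, map_smul, h.norm, h.orth zero_ne_one hr', zero_smul,
    add_zero, smul_eq_mul, mul_one, add_zero]

theorem decomp (v : V) : ∃ u w m : V, mul a u = 0 ∧ mul a w = (1 / 4 : ℝ) • w ∧ mul a m = (1 / 32 : ℝ) • m ∧
    v = B a v • a + u + w + m ∧ μ v = B a v • a + u + w - m := by
  obtain ⟨-, -, ⟨⟨-, hid, htop, -⟩, hprim⟩, hfix, hneg⟩ := h.pair
  have hmem : v ∈ Cfsg.Axial.eigenSum mul a Cfsg.Axial.majoranaSpectrum := htop ▸ Submodule.mem_top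
  rw [show Cfsg.Axial.eigenSum mul a Cfsg.Axial.majoranaSpectrum = Cfsg.Axial.eigen mul a 1 ⊔
      (Cfsg.Axial.eigen mul a 0 ⊔ (Cfsg.Axial.eigen mul a (1 / 4) ⊔ Cfsg.Axial.eigen mul a (1 / 32))) by
    simp only [Cfsg.Axial.eigenSum, Cfsg.Axial.majoranaSpectrum, iSup_insert, iSup_singleton]] at hmem
  obtain ⟨p, hp1, q, hq, rfl⟩ := Submodule.mem_sup.1 hmem
  obtain ⟨u, hu, r, hr, rfl⟩ := Submodule.mem_sup.1 hq
  obtain ⟨w, hw, m, hm, rfl⟩ := Submodule.mem_sup.1 hr
  have hin : ∀ {c : ℝ} {x : V}, c ∈ ({1, 0, 1 / 4} : Set ℝ) → x ∈ Cfsg.Axial.eigen mul a c → μ x = x :=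
    fun {c x} hc hx => hfix x (Submodule.mem_iSup_of_mem c (Submodule.mem_iSup_of_mem hc hx))
  have hμm : μ m = -m := hneg m hm
  have e1 := hin (by simp) hp1
  have e2 := hin (by simp) hu
  have e3 := hin (by simp) hw
  rw [hprim, Submodule.mem_span_singleton] at hp1
  obtain ⟨s, rfl⟩ := hp1
  rw [Cfsg.Axial.eigen, Module.End.mem_eigenspace_iff] at hu hw hm
  have hv : B a (s • a + (u + (w + m))) = s := by
    rw [map_add, map_add, map_add, map_smul, h.norm, h.orth (by norm_num) hu, h.orth (by norm_num) hw,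
      h.orth (by norm_num) hm, smul_eq_mul]
    ring
  refine ⟨u, w, m, by rw [hu, zero_smul], hw, hm, ?_, ?_⟩
  · rw [hv]; abel
  · rw [map_add, map_add, map_add, e1, e2, e3, hμm, hv]; abel

theorem mu_self : μ a = a := by
  obtain ⟨-, -, -, hfix, -⟩ := h.pair
  exact hfix a (Submodule.mem_iSup_of_mem 1 (Submodule.mem_iSup_of_mem (by simp)
    (Module.End.mem_eigenspace_iff.2 (by rw [h.idem, one_smul]))))

theorem mu_mu (v : V) : μ (μ v) = v := by
  obtain ⟨u, w, m, hu, hw, hm, hv, hμ⟩ := h.decomp v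
  obtain ⟨-, -, -, hfix, hneg⟩ := h.pair
  have f0 : ∀ {c : ℝ} {x : V}, c ∈ ({1, 0, 1 / 4} : Set ℝ) → mul a x = c • x → μ x = x :=
    fun {c x} hc hx => hfix x (Submodule.mem_iSup_of_mem c (Submodule.mem_iSup_of_mem hc
      (Module.End.mem_eigenspace_iff.2 hx)))
  have e : μ m = -m := hneg m (Module.End.mem_eigenspace_iff.2 hm)
  rw [hμ, map_sub, map_add, map_add, map_smul, h.mu_self, f0 (c := 0) (by simp) (by rw [hu, zero_smul]),
    f0 (c := 1 / 4) (by simp) hw, e, sub_neg_eq_add]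
  exact hv.symm

theorem invariant (v : V) : mul a v - (1 / 32 : ℝ) • v = mul a (μ v) - (1 / 32 : ℝ) • μ v := by
  obtain ⟨u, w, m, hu, hw, hm, hv, hμ⟩ := h.decomp v
  rw [hμ]
  conv_lhs => rw [hv]
  simp only [map_add, map_sub, map_smul, h.idem, hu, hw, hm]
  module

theorem four_aa {v : V} (hv : μ v = v) : mul a v = (4 : ℝ) • mul a (mul a v) - (3 * B a v) • a := by
  obtain ⟨u, w, m, hu, hw, hm, he, hμ⟩ := h.decomp v
  have hm0 : m = 0 := by
    have e : (2 : ℝ) • m = 0 := by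
      have := hv
      rw [hμ] at this
      calc (2 : ℝ) • m = (B a v • a + u + w + m) - (B a v • a + u + w - m) := by module
        _ = 0 := by rw [← he, this, sub_self]
    exact (smul_eq_zero.1 e).resolve_left two_ne_zero
  subst hm0
  rw [add_zero] at he
  set r := B a v
  rw [he]
  simp only [map_add, map_smul, h.idem, hu, hw, map_zero]
  module

end Axis

/-- The products known around one axis of a dihedral orbit. -/
structure Nbhd (mul : V →ₗ[ℝ] V →ₗ[ℝ] V) (B : LinearMap.BilinForm ℝ V) (μ : V ≃ₗ[ℝ] V) (a : V)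
    (l n : ℝ) (b b' c c' S T T' : V) : Prop where
  axis : Axis mul B μ a
  hb : mul b b = b
  hb' : mul b' b' = b'
  hab : mul a b = S + (1 / 32 : ℝ) • (a + b)
  hab' : mul a b' = S + (1 / 32 : ℝ) • (a + b')
  hbb' : mul b b' = T' + (1 / 32 : ℝ) • (b + b')
  hac : mul a c = T + (1 / 32 : ℝ) • (a + c)
  hac' : mul a c' = T + (1 / 32 : ℝ) • (a + c')
  haS : mul a S = (7 / 32 : ℝ) • S + (7 / 2048 : ℝ) • (b + b') + ((768 * l - 25) / 1024) • a
  hbS : mul b S = (7 / 32 : ℝ) • S + (7 / 2048 : ℝ) • (a + c) + ((768 * l - 25) / 1024) • b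
  hb'S : mul b' S = (7 / 32 : ℝ) • S + (7 / 2048 : ℝ) • (a + c') + ((768 * l - 25) / 1024) • b'
  hμT' : μ T' = T'
  lb : B a b = l
  lb' : B a b' = l
  lS : B a S = (31 * l - 1) / 32
  lT' : B a T' = (30 * l + n - 1) / 32

namespace Nbhd

variable {μ : V ≃ₗ[ℝ] V} {a : V} {l n : ℝ} {b b' c c' S T T' : V}
  (h : Nbhd mul B μ a l n b b' c c' S T T')

include h

theorem closure :
    (mul a T' = (32 / 3 * l - 19 / 48) • S + (1 / 6 * l - 19 / 3072) • (b + b')
        + (-(32 / 3) * l ^ 2 + 5 / 3 * l - 1 / 24 * n - 127 / 3072) • a + (7 / 96 : ℝ) • T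
        + (7 / 6144 : ℝ) • (c + c')) ∧
    (mul S S = (-(5 / 12) * l - 13 / 1536) • S + (7 / 6 * l ^ 2 - 7 / 384 * l + 7 / 1536 * n - 7 / 98304) • a
        + (49 / 768 * l - 245 / 196608) • (b + b') + (49 / 196608 : ℝ) • (c + c') + (7 / 2048 : ℝ) • T'
        + (-(7 / 1536) : ℝ) • T) := by
  obtain ⟨hax, hb, hb', hab, hab', hbb', hac, hac', haS, hbS, hb'S, hμT', lb, lb', lS, lT'⟩ := h
  obtain ⟨hC, -, -, hassoc, -⟩ := id hax.amb
  have ha := hax.idem
  have hba : mul b a = S + (1 / 32 : ℝ) • (a + b) := (hC b a).trans hab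
  have hb'a : mul b' a = S + (1 / 32 : ℝ) • (a + b') := (hC b' a).trans hab'
  have hb'b : mul b' b = T' + (1 / 32 : ℝ) • (b + b') := (hC b' b).trans hbb'
  have hSa := (hC S a).trans haS
  have hSb := (hC S b).trans hbS
  have hSb' := (hC S b').trans hb'S
  set u : V := (7 / 16 : ℝ) • (b + b') - (4 : ℝ) • S + (3 * l - 1 / 8) • a with hu
  set w : V := (4 : ℝ) • S + (1 / 16 : ℝ) • (b + b') - ((32 * l - 1) / 8) • a with hw
  have hau : mul a u = 0 := by
    simp only [hu, map_add, map_sub, map_smul, ha, hab, hab', haS]; module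
  have haw : mul a w = (1 / 4 : ℝ) • w := by
    simp only [hw, map_add, map_sub, map_smul, ha, hab, hab', haS]; module
  have huu := hax.fus00 hau hau
  have huw := hax.fus0q hau haw
  have hww := hax.fusqq haw haw
  have hcc : mul a (mul (u + w) (u + w)) = (1 / 2 : ℝ) • mul u w + B a (mul (u + w) (u + w)) • a := by
    have e0 : B a (mul u u) = 0 := by rw [hassoc, hau, map_zero, LinearMap.zero_apply]
    have e1 : B a (mul u w) = 0 := by rw [hassoc, hau, map_zero, LinearMap.zero_apply]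
    simp only [map_add, LinearMap.add_apply, hC w u, huu, huw, hww, e0, e1, zero_add, add_zero]
    module
  have hs : B a (mul (u + w) (u + w)) = -l ^ 2 + l + n / 64 - 1 / 64 := by
    simp only [hu, hw, map_add, map_sub, map_smul, LinearMap.add_apply, LinearMap.sub_apply,
      LinearMap.smul_apply, ha, hb, hb', hab, hab', hba, hb'a, hbb', hb'b, haS, hSa, hbS, hSb, hb'S, hSb',
      smul_eq_mul, lb, lb', lS, lT', hax.norm]
    ring
  rw [hs] at hcc
  have hD := hax.four_aa hμT'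
  rw [lT'] at hD
  have hB := hcc
  simp only [hu, hw, map_add, map_sub, map_smul, LinearMap.add_apply, LinearMap.sub_apply,
    LinearMap.smul_apply, ha, hb, hb', hab, hab', hba, hb'a, hbb', hb'b, haS, hSa, hbS, hSb, hb'S, hSb',
    hac, hac'] at hB
  have hC' := congrArg (mul a) hcc
  simp only [hu, hw, map_add, map_sub, map_smul, LinearMap.add_apply, LinearMap.sub_apply,
    LinearMap.smul_apply, ha, hb, hb', hab, hab', hba, hb'a, hbb', hb'b, haS, hSa, hbS, hSb, hb'S, hSb',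
    hac, hac'] at hC'
  have hA := huu
  simp only [hu, map_add, map_sub, map_smul, LinearMap.add_apply, LinearMap.sub_apply,
    LinearMap.smul_apply, ha, hb, hb', hab, hab', hba, hb'a, hbb', hb'b, haS, hSa, hbS, hSb, hb'S, hSb',
    hac, hac'] at hA
  constructor
  · linear_combination (norm := module) (16 / 3 : ℝ) • hA + (-(32 / 3) : ℝ) • hC' + (-(4 / 3) : ℝ) • hD
  · linear_combination (norm := module) (-(1 / 3) : ℝ) • hA + (1 / 8 : ℝ) • hB + (2 / 3 : ℝ) • hC' + (1 / 12 : ℝ) • hD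

end Nbhd

end Cfsg.Agent.Lib.Sakuma
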