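import Cfsg.Agent.Lib.Sakuma.Orbit

/-!
The inner products along a dihedral orbit of Majorana axes and the two equations for the first two
of them; the orbit has period at most six.
-/

set_option autoImplicit false

namespace Cfsg.Agent.Lib.Sakuma

variable {V : Type*} [AddCommGroup V] [Module ℝ V] {mul : V →ₗ[ℝ] V →ₗ[ℝ] V}
  {B : LinearMap.BilinForm ℝ V}

namespace Orbit

variable {a : ℤ → V} {μ : ℤ → (V ≃ₗ[ℝ] V)} (o : Orbit mul B a μ)

include o

set_option maxHeartbeats 1000000 in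
theorem equations (l m : ℝ) (hl : B (a 0) (a 1) = l) (hm : B (a 0) (a 2) = m) :
    B (a 0) (a 3) = (-32768 / 7) * l ^ 3 + (36864 / 7) * l ^ 2 + (-1920 / 7) * l ^ 1 * m ^ 1 + (-2169 / 7) * l ^ 1 + (-33 / 7) * m ^ 1 + (33 / 7) ∧
    B (a 0) (a 4) = (8388608 / 7) * l ^ 4 + (-9601024 / 7) * l ^ 3 + (65536) * l ^ 2 * m ^ 1 + (110592) * l ^ 2 + (-640 / 7) * l ^ 1 * m ^ 1 + (-19840 / 7) * l ^ 1 + (-128 / 7) * m ^ 2 + (-3) * m ^ 1 + (156 / 7) ∧
    B (a 0) (a 5) = (-13958643712 / 49) * l ^ 5 + (16273899520 / 49) * l ^ 4 + (-754974720 / 49) * l ^ 3 * m ^ 1 + (-1633419264 / 49) * l ^ 3 + (12582912 / 49) * l ^ 2 * m ^ 1 + (8683520 / 7) * l ^ 2 + (475136 / 49) * l ^ 1 * m ^ 2 + (259584 / 49) * l ^ 1 * m ^ 1 + (-137721 / 7) * l ^ 1 + (-256 / 49) * m ^ 2 + (-5256 / 49) * m ^ 1 + (5512 / 49) ∧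
    B (a 0) (a 6) = (3298534883328 / 49) * l ^ 6 + (-3917010173952 / 49) * l ^ 5 + (177167400960 / 49) * l ^ 4 * m ^ 1 + (469317451776 / 49) * l ^ 4 + (-5511315456 / 49) * l ^ 3 * m ^ 1 + (-22767894528 / 49) * l ^ 3 + (-25165824 / 7) * l ^ 2 * m ^ 2 + (-97910784 / 49) * l ^ 2 * m ^ 1 + (542429184 / 49) * l ^ 2 + (2457600 / 49) * l ^ 1 * m ^ 2 + (5162880 / 49) * l ^ 1 * m ^ 1 + (-904320 / 7) * l ^ 1 + (16384 / 49) * m ^ 3 + (1152 / 49) * m ^ 2 + (-46500 / 49) * m ^ 1 + (29013 / 49) ∧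
    (14680064) * l ^ 4 + (-16285696) * l ^ 3 + (286720) * l ^ 2 * m ^ 1 + (1290240) * l ^ 2 + (62272) * l ^ 1 * m ^ 1 + (-33600) * l ^ 1 + (896) * m ^ 2 + (-1169) * m ^ 1 + (273) = 0 ∧
    (-536870912) * l ^ 5 + (605028352) * l ^ 4 + (-26214400) * l ^ 3 * m ^ 1 + (-44138496) * l ^ 3 + (1593344) * l ^ 2 * m ^ 1 + (860160) * l ^ 2 + (-94208) * l ^ 1 * m ^ 2 + (-165856) * l ^ 1 * m ^ 1 + (2016) * l ^ 1 + (-2784) * m ^ 2 + (2901) * m ^ 1 + (-117) = 0 := by
  have r : ∀ i : ℤ, _ := fun i => o.relation i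
  have hM : ∀ i, B (a i) (a (i + 2)) = m := fun i => (o.two_const i).trans hm
  have hMid : ∀ i, B (a (i - 1)) (a (i + 1)) = m := fun i => by
    have := hM (i - 1); rwa [show i - 1 + 2 = i + 1 by ring] at this
  simp only [hl, hM, hMid] at r
  have p1 : ∀ i, B (a i) (a (i + 1)) = l := fun i => (o.lam i).trans hl
  have p1' : ∀ i, B (a (i + 1)) (a i) = l := fun i => (o.symm _ _).trans (p1 i)
  have p2' : ∀ i, B (a (i + 2)) (a i) = m := fun i => (o.symm _ _).trans (hM i)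
  have s1 : ∀ i, B (a i) (sig mul a 1 0) = (31 * l - 1) / 32 := fun i => by rw [o.form_sig_one, hl]
  have s2 : ∀ i, B (a i) (sig mul a 2 i) = (31 * m - 1) / 32 := fun i => by rw [o.form_sig, hM]
  have s2' : ∀ i, B (a i) (sig mul a 2 (i - 1)) = (30 * l + m - 1) / 32 := fun i => by
    rw [o.form_sig_mid, hl, hMid]
  have T1 : sig mul a 2 1 = sig mul a 2 (-1) := by simpa using o.sig_two (-1)
  have T2 : sig mul a 2 2 = sig mul a 2 0 := by simpa using o.sig_two 0
  have T3 : sig mul a 2 3 = sig mul a 2 (-1) := by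
    have := o.sig_two 1; norm_num at this; rw [this, T1]
  -- inner products of the first axes
  have i01 : B (a 0) (a 1) = l := hl
  have i02 : B (a 0) (a 2) = m := hm
  have i0m1 : B (a 0) (a (-1)) = l := by have := p1' (-1); norm_num at this; exact this
  have i0m2 : B (a 0) (a (-2)) = m := by have := p2' (-2); norm_num at this; exact this
  have im1m2 : B (a (-1)) (a (-2)) = l := by have := p1' (-2); norm_num at this; exact this
  have im10 : B (a (-1)) (a 0) = l := (o.symm _ _).trans i0m1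
  have im11 : B (a (-1)) (a 1) = m := by have := hM (-1); norm_num at this; exact this
  have im12 : B (a (-1)) (a 2) = B (a 0) (a 3) := by
    have := o.refl_form 1 3 0; norm_num at this; rw [this, o.symm]
  have i2m1 : B (a 2) (a (-1)) = B (a 0) (a 3) := (o.symm _ _).trans im12
  have i2m2 : B (a 2) (a (-2)) = B (a 0) (a 4) := by
    have := o.refl_form 1 0 4; norm_num at this; exact this
  have i20 : B (a 2) (a 0) = m := (o.symm _ _).trans i02
  have i21 : B (a 2) (a 1) = l := by have := p1' 1; norm_num at this; exact this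
  have i30 : B (a 3) (a 0) = B (a 0) (a 3) := o.symm _ _
  have i31 : B (a 3) (a 1) = m := by have := p2' 1; norm_num at this; exact this
  have i32 : B (a 3) (a 2) = l := by have := p1' 2; norm_num at this; exact this
  have i3m1 : B (a 3) (a (-1)) = B (a (-1)) (a 3) := o.symm _ _
  have i3m2 : B (a 3) (a (-2)) = B (a 0) (a 5) := by
    have := o.shift_form 1 3 (-2); norm_num at this; rw [← this, o.symm]
  have t00 : B (a 0) (sig mul a 2 0) = (31 * m - 1) / 32 := s2 0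
  have t0m : B (a 0) (sig mul a 2 (-1)) = (30 * l + m - 1) / 32 := by have := s2' 0; norm_num at this ⊢; exact this
  have tm0 : B (a (-1)) (sig mul a 2 0) = (30 * l + m - 1) / 32 := by
    have := s2' (-1); have e := o.sig_two (-2); norm_num at this e ⊢; rw [← e] at this; exact this
  have tmm : B (a (-1)) (sig mul a 2 (-1)) = (31 * m - 1) / 32 := s2 (-1)
  have t20 : B (a 2) (sig mul a 2 0) = (31 * m - 1) / 32 := by have := s2 2; rw [T2] at this; exact this
  have t2m : B (a 2) (sig mul a 2 (-1)) = (30 * l + m - 1) / 32 := by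
    have := s2' 2; norm_num at this ⊢; rw [T1] at this; exact this
  have t30 : B (a 3) (sig mul a 2 0) = (30 * l + m - 1) / 32 := by
    have := s2' 3; norm_num at this ⊢; rw [T2] at this; exact this
  have t3m : B (a 3) (sig mul a 2 (-1)) = (31 * m - 1) / 32 := by have := s2 3; rw [T3] at this; exact this
  have r0 := r 0
  have r1 := r 1
  have r2 := r 2
  have r3 := r 3
  norm_num only [T1, T2, T3] at r0 r1 r2 r3
  have e3 := congrArg (B (a 0)) r0
  simp only [map_add, map_smul, smul_eq_mul, o.norm, i01, i02, i0m1, i0m2, t00, t0m] at e3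
  have f3 : B (a 0) (a 3) = (-32768 / 7) * l ^ 3 + (36864 / 7) * l ^ 2 + (-1920 / 7) * l ^ 1 * m ^ 1 + (-2169 / 7) * l ^ 1 + (-33 / 7) * m ^ 1 + (33 / 7) := by
    linear_combination (-(196608 / 49) : ℝ) * e3
  have e4 := congrArg (B (a 0)) r1
  simp only [map_add, map_smul, smul_eq_mul, o.norm, i01, i02, i0m1, f3, t00, t0m] at e4
  have f4 : B (a 0) (a 4) = (8388608 / 7) * l ^ 4 + (-9601024 / 7) * l ^ 3 + (65536) * l ^ 2 * m ^ 1 + (110592) * l ^ 2 + (-640 / 7) * l ^ 1 * m ^ 1 + (-19840 / 7) * l ^ 1 + (-128 / 7) * m ^ 2 + (-3) * m ^ 1 + (156 / 7) := by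
    linear_combination (-(196608 / 49) : ℝ) * e4
  have e5 := congrArg (B (a 0)) r2
  simp only [map_add, map_smul, smul_eq_mul, o.norm, i01, i02, f3, f4, t00, t0m] at e5
  have f5 : B (a 0) (a 5) = (-13958643712 / 49) * l ^ 5 + (16273899520 / 49) * l ^ 4 + (-754974720 / 49) * l ^ 3 * m ^ 1 + (-1633419264 / 49) * l ^ 3 + (12582912 / 49) * l ^ 2 * m ^ 1 + (8683520 / 7) * l ^ 2 + (475136 / 49) * l ^ 1 * m ^ 2 + (259584 / 49) * l ^ 1 * m ^ 1 + (-137721 / 7) * l ^ 1 + (-256 / 49) * m ^ 2 + (-5256 / 49) * m ^ 1 + (5512 / 49) := by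
    linear_combination (-(196608 / 49) : ℝ) * e5
  have e6 := congrArg (B (a 0)) r3
  simp only [map_add, map_smul, smul_eq_mul, i01, i02, f3, f4, f5, t00, t0m] at e6
  have f6 : B (a 0) (a 6) = (3298534883328 / 49) * l ^ 6 + (-3917010173952 / 49) * l ^ 5 + (177167400960 / 49) * l ^ 4 * m ^ 1 + (469317451776 / 49) * l ^ 4 + (-5511315456 / 49) * l ^ 3 * m ^ 1 + (-22767894528 / 49) * l ^ 3 + (-25165824 / 7) * l ^ 2 * m ^ 2 + (-97910784 / 49) * l ^ 2 * m ^ 1 + (542429184 / 49) * l ^ 2 + (2457600 / 49) * l ^ 1 * m ^ 2 + (5162880 / 49) * l ^ 1 * m ^ 1 + (-904320 / 7) * l ^ 1 + (16384 / 49) * m ^ 3 + (1152 / 49) * m ^ 2 + (-46500 / 49) * m ^ 1 + (29013 / 49) := by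
    linear_combination (-(196608 / 49) : ℝ) * e6
  have e4' := congrArg (B (a (-1))) r0
  simp only [map_add, map_smul, smul_eq_mul, o.norm, im1m2, im10, im11, im12, f3, tm0, tmm] at e4'
  have f4' : B (a (-1)) (a 3) = (8388608 / 7) * l ^ 4 + (-9601024 / 7) * l ^ 3 + (65536) * l ^ 2 * m ^ 1 + (110592) * l ^ 2 + (-640 / 7) * l ^ 1 * m ^ 1 + (-19840 / 7) * l ^ 1 + (-128 / 7) * m ^ 2 + (-3) * m ^ 1 + (156 / 7) := by
    linear_combination (-(196608 / 49) : ℝ) * e4'
  -- products with the axis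
  have P01 : mul (a 0) (a 1) = sig mul a 1 0 + (1 / 32 : ℝ) • (a 0 + a 1) := (o.nbhd 0).hab
  have P0m1 := (o.nbhd 0).hab'
  have P02 : mul (a 0) (a 2) = sig mul a 2 0 + (1 / 32 : ℝ) • (a 0 + a 2) := (o.nbhd 0).hac
  have P0m2 := (o.nbhd 0).hac'
  have P0S := (o.nbhd 0).haS
  have P0T := o.axis_sig 0 2
  have P0T' := (o.nbhd 0).closure.1
  norm_num only [hl] at P0m1 P0m2 P0S P0T P0T'
  rw [im11] at P0T'
  rw [hm] at P0T
  have g := congrArg (fun v => B (a 2) (mul (a 0) v)) r0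
  have g' := congrArg (fun v => B (a 3) (mul (a 0) v)) r0
  have h23 : B (a 2) (mul (a 0) (a 3)) = B (a 3) (mul (a 0) (a 2)) := by
    rw [o.assoc, o.symm, o.mcomm (a 2) (a 0)]
  have h33 : B (a 3) (mul (a 0) (a 3)) = B (a 0) (a 3) := by
    rw [o.assoc, o.mcomm (a 3) (a 0), ← o.assoc, o.idem]
  simp only [map_add, map_smul, o.idem, P01, P0m1, P02, P0m2, P0T, P0T', h23, h33, smul_eq_mul, o.norm,
    i2m1, i2m2, i20, i21, i30, i31, i32, i3m1, i3m2, t20, t2m, t30, t3m, s1, f3, f4, f4', f5] at g g'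
  refine ⟨f3, f4, f5, f6, ?_, ?_⟩
  · linear_combination (-524288 : ℝ) * g
  · linear_combination (-262144 : ℝ) * g'

theorem period : ∃ n : ℕ, 1 ≤ n ∧ n ≤ 6 ∧ a n = a 0 := by
  have hz : ∀ n : ℕ, B (a 0) (a n) = 1 → a n = a 0 := fun n h => by
    by_contra hne
    have hpos := o.amb.2.2.1 (a n - a 0) (sub_ne_zero.2 hne)
    simp only [map_sub, LinearMap.sub_apply, o.norm, h, o.symm (a n) (a 0)] at hpos
    linarith
  generalize hl : B (a 0) (a 1) = l
  generalize hm : B (a 0) (a 2) = m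
  obtain ⟨f3, f4, f5, f6, c1, c2⟩ := o.equations l m hl hm
  set A : ℝ := (-2925/4) + (-95280) * l ^ 1 + (9031680) * l ^ 2 + (3932160) * l ^ 3 with hA
  have lin : A * m + ((2925/4) + (-73680) * l ^ 1 + (1336320) * l ^ 2 + (40919040) * l ^ 3 + (-1061683200) * l ^ 4 + (1006632960) * l ^ 5) = 0 := by
    linear_combination c2 - ((-87/28) + (-736/7) * l ^ 1) * c1
  have hprod : (l - 1) * (l - 1 / 8) * (l - 0) * (l - 13 / 256) * (l - 1 / 64) ^ 2 * (l - 1 / 32) *
      (l - 3 / 128) * (l - 5 / 256) = 0 := by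
    linear_combination (-1 / 2780522409938544230400 : ℝ) * (A ^ 2 * c1 -
      ((896 : ℝ) * (A * m - ((2925/4) + (-73680) * l ^ 1 + (1336320) * l ^ 2 + (40919040) * l ^ 3 + (-1061683200) * l ^ 4 + (1006632960) * l ^ 5)) + ((-1169) + (62272) * l ^ 1 + (286720) * l ^ 2) * A) * lin)
  simp only [mul_eq_zero, sub_eq_zero, pow_eq_zero_iff (two_ne_zero)] at hprod
  rcases hprod with ((((((( h | h) | h) | h) | h) | h) | h) | h) <;> subst h <;> norm_num [hA] at lin
  · exact ⟨1, by norm_num, by norm_num, hz 1 (by exact_mod_cast hl)⟩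
  · obtain rfl : m = 1 := by linarith
    exact ⟨2, by norm_num, by norm_num, hz 2 (by exact_mod_cast hm)⟩
  · obtain rfl : m = 1 := by linarith
    exact ⟨2, by norm_num, by norm_num, hz 2 (by exact_mod_cast hm)⟩
  · obtain rfl : m = 13 / 256 := by linarith
    exact ⟨3, by norm_num, by norm_num, hz 3 (by push_cast; rw [f3]; norm_num)⟩
  · have hc : (m - 1 / 64) * (m - 1 / 8) = 0 := by linear_combination (1 / 896 : ℝ) * c1
    rcases mul_eq_zero.1 hc with h | h <;> rw [sub_eq_zero] at h <;> subst h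
    · exact ⟨3, by norm_num, by norm_num, hz 3 (by push_cast; rw [f3]; norm_num)⟩
    · exact ⟨4, by norm_num, by norm_num, hz 4 (by push_cast; rw [f4]; norm_num)⟩
  · obtain rfl : m = 0 := by linarith
    exact ⟨4, by norm_num, by norm_num, hz 4 (by push_cast; rw [f4]; norm_num)⟩
  · obtain rfl : m = 3 / 128 := by linarith
    exact ⟨5, by norm_num, by norm_num, hz 5 (by push_cast; rw [f5]; norm_num)⟩
  · obtain rfl : m = 13 / 256 := by linarith
    exact ⟨6, le_rfl.trans (by norm_num), le_rfl, hz 6 (by push_cast; rw [f6]; norm_num)⟩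

end Orbit

end Cfsg.Agent.Lib.Sakuma
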