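import Cfsg.Agent.Lib.Sakuma.Equations

/-!
The orbit of axes of two Majorana involutions, and the bound on the order of their product.
-/

set_option autoImplicit false

namespace Cfsg.Agent.Lib.Sakuma

variable {V : Type*} [AddCommGroup V] [Module ℝ V] {mul : V →ₗ[ℝ] V →ₗ[ℝ] V}
  {B : LinearMap.BilinForm ℝ V}

theorem eigenSum_image (φ : V ≃ₗ[ℝ] V) (hφ : ∀ u v, φ (mul u v) = mul (φ u) (φ v)) (a : V) (S : Set ℝ) :
    Cfsg.Axial.eigenSum mul (φ a) S = (Cfsg.Axial.eigenSum mul a S).map (φ : V →ₗ[ℝ] V) := by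
  simp only [Cfsg.Axial.eigenSum, Submodule.map_iSup]
  refine iSup_congr fun c => iSup_congr fun _ => ?_
  ext v
  simp only [Submodule.mem_map, Cfsg.Axial.eigen, Module.End.mem_eigenspace_iff]
  constructor
  · intro hv
    refine ⟨φ.symm v, φ.injective ?_, φ.apply_symm_apply v⟩
    rw [hφ, φ.apply_symm_apply, map_smul, φ.apply_symm_apply, hv]
  · rintro ⟨x, hx, rfl⟩
    show mul (φ a) (φ x) = c • φ x
    rw [← hφ, hx, map_smul]

theorem eigen_image (φ : V ≃ₗ[ℝ] V) (hφ : ∀ u v, φ (mul u v) = mul (φ u) (φ v)) (a : V) (c : ℝ) :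
    Cfsg.Axial.eigen mul (φ a) c = (Cfsg.Axial.eigen mul a c).map (φ : V →ₗ[ℝ] V) := by
  simpa [Cfsg.Axial.eigenSum] using eigenSum_image φ hφ a {c}

theorem Axis.conj {μ : V ≃ₗ[ℝ] V} {a : V} (h : Axis mul B μ a) (φ : V ≃ₗ[ℝ] V)
    (hφ : ∀ u v, φ (mul u v) = mul (φ u) (φ v)) (hB : ∀ u v, B (φ u) (φ v) = B u v) :
    Axis mul B (φ * μ * φ⁻¹) (φ a) := by
  obtain ⟨hμ, hμB, ⟨⟨hne, hid, htop, hfus⟩, hprim⟩, hfix, hneg⟩ := h.pair
  have happ : ∀ x, (φ * μ * φ⁻¹) (φ x) = φ (μ x) := fun x => by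
    show φ (μ (φ.symm (φ x))) = _
    rw [φ.symm_apply_apply]
  refine ⟨h.amb, ⟨?_, ?_, ⟨⟨?_, ?_, ?_, ?_⟩, ?_⟩, ?_, ?_⟩, by rw [hB, h.norm]⟩
  · intro u v
    obtain ⟨u, rfl⟩ := φ.surjective u
    obtain ⟨v, rfl⟩ := φ.surjective v
    rw [← hφ, happ, happ, happ, hμ, hφ]
  · intro u v
    obtain ⟨u, rfl⟩ := φ.surjective u
    obtain ⟨v, rfl⟩ := φ.surjective v
    rw [happ, happ, hB, hB, hμB]
  · simpa using hne
  · rw [← hφ, hid]
  · rw [eigenSum_image φ hφ, htop, Submodule.map_top, LinearMap.range_eq_top]; exact φ.surjective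
  · intro c hc d hd x hx y hy
    rw [eigen_image φ hφ] at hx hy
    obtain ⟨x, hx, rfl⟩ := hx
    obtain ⟨y, hy, rfl⟩ := hy
    show mul (φ x) (φ y) ∈ _
    rw [← hφ, eigenSum_image φ hφ]
    exact Submodule.mem_map_of_mem (hfus c hc d hd x hx y hy)
  · rw [eigen_image φ hφ, hprim, Submodule.map_span, Set.image_singleton]; rfl
  · intro v hv
    rw [eigenSum_image φ hφ] at hv
    obtain ⟨x, hx, rfl⟩ := hv
    show (φ * μ * φ⁻¹) (φ x) = φ x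
    rw [happ]; exact congrArg φ (hfix x hx)
  · intro v hv
    rw [eigen_image φ hφ] at hv
    obtain ⟨x, hx, rfl⟩ := hv
    show (φ * μ * φ⁻¹) (φ x) = -φ x
    rw [happ, ← map_neg]; exact congrArg φ (hneg x hx)

theorem Axis.unique_mu {μ μ' : V ≃ₗ[ℝ] V} {a : V} (h : Axis mul B μ a) (h' : Axis mul B μ' a) : μ = μ' := by
  refine LinearEquiv.toLinearMap_injective (LinearMap.ext fun v => ?_)
  obtain ⟨u, w, m, hu, hw, hm, hv, hμ⟩ := h.decomp v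
  obtain ⟨-, -, -, hfix, hneg⟩ := h'.pair
  have f0 : ∀ {c : ℝ} {x : V}, c ∈ ({1, 0, 1 / 4} : Set ℝ) → mul a x = c • x → μ' x = x :=
    fun {c x} hc hx => hfix x (Submodule.mem_iSup_of_mem c (Submodule.mem_iSup_of_mem hc
      (Module.End.mem_eigenspace_iff.2 hx)))
  have e : μ' m = -m := hneg m (Module.End.mem_eigenspace_iff.2 hm)
  show μ v = μ' v
  rw [hμ]
  conv_rhs => rw [hv]
  rw [map_add, map_add, map_add, map_smul, h'.mu_self, f0 (c := 0) (by simp) (by rw [hu, zero_smul]),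
    f0 (c := 1 / 4) (by simp) hw, e, ← sub_eq_add_neg]

theorem majorana_period {μ₀ μ₁ : V ≃ₗ[ℝ] V} {a₀ a₁ : V} (hV : Cfsg.Axial.IsMajoranaAmbient mul B)
    (h₀ : Cfsg.Axial.IsMajoranaPair mul B μ₀ a₀) (h₁ : Cfsg.Axial.IsMajoranaPair mul B μ₁ a₁)
    (_hu₀ : ∀ a : V, Cfsg.Axial.IsMajoranaPair mul B μ₀ a → a = a₀) (hn₀ : B a₀ a₀ = 1) (hn₁ : B a₁ a₁ = 1) :
    ∃ n : ℕ, 1 ≤ n ∧ n ≤ 6 ∧ (μ₀ * μ₁) ^ n = 1 := by
  have A0 : Axis mul B μ₀ a₀ := ⟨hV, h₀, hn₀⟩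
  have A1 : Axis mul B μ₁ a₁ := ⟨hV, h₁, hn₁⟩
  have s0 : μ₀ * μ₀ = 1 := LinearEquiv.toLinearMap_injective (LinearMap.ext fun v => A0.mu_mu v)
  have s1 : μ₁ * μ₁ = 1 := LinearEquiv.toLinearMap_injective (LinearMap.ext fun v => A1.mu_mu v)
  have i0 : μ₀⁻¹ = μ₀ := inv_eq_of_mul_eq_one_right s0
  have i1 : μ₁⁻¹ = μ₁ := inv_eq_of_mul_eq_one_right s1
  let G : Subgroup (V ≃ₗ[ℝ] V) :=
    { carrier := {φ | (∀ u v, φ (mul u v) = mul (φ u) (φ v)) ∧ ∀ u v, B (φ u) (φ v) = B u v}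
      one_mem' := ⟨fun _ _ => rfl, fun _ _ => rfl⟩
      mul_mem' := fun {p q} hp hq => ⟨fun u v => (congrArg p (hq.1 u v)).trans (hp.1 (q u) (q v)),
        fun u v => (hp.2 (q u) (q v)).trans (hq.2 u v)⟩
      inv_mem' := fun {p} hp => ⟨fun u v => p.injective (by
          show p (p.symm (mul u v)) = p (mul (p.symm u) (p.symm v))
          rw [hp.1, p.apply_symm_apply, p.apply_symm_apply, p.apply_symm_apply]),
        fun u v => by
          show B (p.symm u) (p.symm v) = B u v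
          rw [← hp.2 (p.symm u) (p.symm v), p.apply_symm_apply, p.apply_symm_apply]⟩ }
  set ρ := μ₁ * μ₀ with hρ
  have hρG : ρ ∈ G := G.mul_mem ⟨h₁.1, h₁.2.1⟩ ⟨h₀.1, h₀.2.1⟩
  have hflip : ∀ k : ℤ, μ₀ * ρ ^ k = ρ ^ (-k) * μ₀ := fun k => by
    have h1 : (μ₀ * ρ * μ₀⁻¹) ^ k = μ₀ * ρ ^ k * μ₀⁻¹ := by
      rw [← MulAut.conj_apply, ← map_zpow, MulAut.conj_apply]
    have h2 : μ₀ * ρ * μ₀⁻¹ = ρ⁻¹ := by
      rw [hρ, mul_inv_rev, i0, i1, mul_assoc, mul_assoc, s0, mul_one]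
    rw [h2, inv_zpow', i0] at h1
    calc μ₀ * ρ ^ k = μ₀ * ρ ^ k * μ₀ * μ₀ := by rw [mul_assoc _ μ₀ μ₀, s0, mul_one]
      _ = ρ ^ (-k) * μ₀ := by rw [← h1]
  let a : ℤ → V := fun i => if Even i then (ρ ^ (i / 2)) a₀ else (ρ ^ (i / 2)) a₁
  let μ : ℤ → (V ≃ₗ[ℝ] V) := fun i => μ₀ * ρ ^ (-i)
  have ae : ∀ k : ℤ, a (2 * k) = (ρ ^ k) a₀ := fun k => by
    simp [a]
  have ao : ∀ k : ℤ, a (2 * k + 1) = (ρ ^ k) a₁ := fun k => by
    simp only [a, if_neg (by simp : ¬ Even (2 * k + 1))]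
    rw [show (2 * k + 1) / 2 = k by omega]
  have app : ∀ (p q : V ≃ₗ[ℝ] V) (x : V), (p * q) x = p (q x) := fun _ _ _ => rfl
  have μa1 : μ₀ a₁ = (ρ ^ (-1 : ℤ)) a₁ := by
    rw [zpow_neg, zpow_one, hρ, mul_inv_rev, i0, i1, app, A1.mu_self]
  have o : Orbit mul B a μ := by
    refine ⟨fun i => ?_, fun i j => ?_⟩
    · rcases Int.even_or_odd' i with ⟨k, rfl | rfl⟩
      · have hk := G.zpow_mem hρG k
        have h := A0.conj (ρ ^ k) hk.1 hk.2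
        rw [ae]
        convert h using 1
        show μ₀ * ρ ^ (-(2 * k)) = _
        rw [← zpow_neg, show -(2 * k) = -k + -k by ring, zpow_add, ← mul_assoc, hflip, neg_neg]
      · have hk := G.zpow_mem hρG k
        have h := A1.conj (ρ ^ k) hk.1 hk.2
        rw [ao]
        convert h using 1
        show μ₀ * ρ ^ (-(2 * k + 1)) = _
        have e : μ₁ = μ₀ * ρ ^ (-1 : ℤ) := by
          rw [zpow_neg, zpow_one, hρ, mul_inv_rev, i0, i1, ← mul_assoc, s0, one_mul]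
        rw [e, ← zpow_neg, ← mul_assoc (ρ ^ k), show ρ ^ k * μ₀ = μ₀ * ρ ^ (-k) by rw [hflip, neg_neg],
          mul_assoc, mul_assoc, ← zpow_add, ← zpow_add]
        congr 2; ring
    · show (μ₀ * ρ ^ (-i)) (a j) = a (2 * i - j)
      rcases Int.even_or_odd' j with ⟨k, rfl | rfl⟩
      · rw [ae, show 2 * i - 2 * k = 2 * (i - k) by ring, ae, app, ← app (ρ ^ (-i)), ← zpow_add,
          ← app μ₀, hflip, app, A0.mu_self, show -(-i + k) = i - k by ring]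
      · rw [ao, show 2 * i - (2 * k + 1) = 2 * (i - k - 1) + 1 by ring, ao, app, ← app (ρ ^ (-i)), ← zpow_add,
          ← app μ₀, hflip, app, μa1, ← app, ← zpow_add, show -(-i + k) + -1 = i - k - 1 by ring]
  obtain ⟨n, h1, h6, hn⟩ := o.period
  refine ⟨n, h1, h6, ?_⟩
  have hμn := o.ax n
  rw [hn] at hμn
  have e := hμn.unique_mu (o.ax 0)
  simp only [μ, neg_zero, zpow_zero, mul_one] at e
  have hρn : ρ ^ n = 1 := by
    have : ρ ^ (-(n : ℤ)) = 1 := by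
      calc ρ ^ (-(n : ℤ)) = μ₀ * (μ₀ * ρ ^ (-(n : ℤ))) := by rw [← mul_assoc, s0, one_mul]
        _ = 1 := by rw [e, s0]
    rwa [zpow_neg, inv_eq_one, zpow_natCast] at this
  rw [show μ₀ * μ₁ = ρ⁻¹ by rw [hρ, mul_inv_rev, i0, i1], inv_pow, hρn, inv_one]

end Cfsg.Agent.Lib.Sakuma
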