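import Cfsg.Agent.Lib.Sakuma.Axis

/-!
The invariants of a dihedral orbit of Majorana axes and the equation satisfied by the orbit.
-/

set_option autoImplicit false

namespace Cfsg.Agent.Lib.Sakuma

variable {V : Type*} [AddCommGroup V] [Module ℝ V] {mul : V →ₗ[ℝ] V →ₗ[ℝ] V}
  {B : LinearMap.BilinForm ℝ V}

theorem periodic_int {α : Type*} (f : ℤ → α) (h : ∀ i, f (i + 1) = f i) (i : ℤ) : f i = f 0 := by
  induction i with
  | zero => rfl
  | succ n ih => rw [h, ih]
  | pred n ih => rw [← h (-(n : ℤ) - 1), sub_add_cancel, ih]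

/-- An orbit of axes under the dihedral group generated by two Majorana involutions. -/
structure Orbit (mul : V →ₗ[ℝ] V →ₗ[ℝ] V) (B : LinearMap.BilinForm ℝ V) (a : ℤ → V) (μ : ℤ → (V ≃ₗ[ℝ] V)) : Prop where
  ax : ∀ i, Axis mul B (μ i) (a i)
  refl : ∀ i j, μ i (a j) = a (2 * i - j)

/-- The invariant vector of neighbouring axes. -/
noncomputable def sig (mul : V →ₗ[ℝ] V →ₗ[ℝ] V) (a : ℤ → V) (d i : ℤ) : V :=
  mul (a i) (a (i + d)) - (1 / 32 : ℝ) • (a i + a (i + d))

namespace Orbit

variable {a : ℤ → V} {μ : ℤ → (V ≃ₗ[ℝ] V)} (o : Orbit mul B a μ)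

include o

theorem amb : Cfsg.Axial.IsMajoranaAmbient mul B := (o.ax 0).amb

theorem symm (x y : V) : B x y = B y x := o.amb.2.1 x y

theorem mcomm (x y : V) : mul x y = mul y x := o.amb.1 x y

theorem assoc (x y z : V) : B x (mul y z) = B (mul x y) z := o.amb.2.2.2.1 x y z

theorem idem (i : ℤ) : mul (a i) (a i) = a i := (o.ax i).idem

theorem norm (i : ℤ) : B (a i) (a i) = 1 := (o.ax i).norm

theorem refl_form (k i j : ℤ) : B (a (2 * k - i)) (a (2 * k - j)) = B (a i) (a j) := by
  rw [← o.refl, ← o.refl]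
  exact (o.ax k).pair.2.1 _ _

theorem shift_form (k i j : ℤ) : B (a (i + 2 * k)) (a (j + 2 * k)) = B (a i) (a j) := by
  rw [show i + 2 * k = 2 * k - (2 * 0 - i) by ring, show j + 2 * k = 2 * k - (2 * 0 - j) by ring,
    o.refl_form, o.refl_form]

theorem sig_back (d i : ℤ) : sig mul a d (i - d) = sig mul a d i := by
  have h := (o.ax i).invariant (a (i + d))
  rw [o.refl, show 2 * i - (i + d) = i - d by ring] at h
  rw [sig, sig, sub_add_cancel, o.mcomm (a (i - d)) (a i)]
  linear_combination (norm := module) (-1 : ℝ) • h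

theorem sig_one (i : ℤ) : sig mul a 1 i = sig mul a 1 0 :=
  periodic_int (fun i => sig mul a 1 i) (fun i => by rw [← o.sig_back 1 (i + 1), add_sub_cancel_right]) i

theorem sig_two (i : ℤ) : sig mul a 2 (i + 2) = sig mul a 2 i := by
  rw [← o.sig_back 2 (i + 2), add_sub_cancel_right]

theorem lam (i : ℤ) : B (a i) (a (i + 1)) = B (a 0) (a 1) :=
  periodic_int (fun i => B (a i) (a (i + 1))) (fun i => by
    have := o.refl_form (i + 1) i (i + 1)
    rw [show 2 * (i + 1) - i = i + 1 + 1 by ring, show 2 * (i + 1) - (i + 1) = i + 1 by ring] at this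
    rw [o.symm]
    exact this) i

theorem prod_one (i : ℤ) : mul (a i) (a (i + 1)) = sig mul a 1 0 + (1 / 32 : ℝ) • (a i + a (i + 1)) := by
  rw [← o.sig_one i, sig]; abel

theorem prod_two (i : ℤ) : mul (a i) (a (i + 2)) = sig mul a 2 i + (1 / 32 : ℝ) • (a i + a (i + 2)) := by
  rw [sig]; abel

/-- The product of an axis with an invariant vector through it. -/
theorem axis_sig (i d : ℤ) : mul (a i) (sig mul a d i) = (7 / 32 : ℝ) • sig mul a d i +
    (7 / 2048 : ℝ) • (a (i + d) + a (i - d)) + ((768 * B (a i) (a (i + d)) - 25) / 1024) • a i := by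
  obtain ⟨u, w, m, hu, hw, hm, hv, hμ⟩ := (o.ax i).decomp (a (i + d))
  rw [o.refl, show 2 * i - (i + d) = i - d by ring] at hμ
  set t := B (a i) (a (i + d))
  rw [sig, hμ, hv]
  simp only [map_add, map_sub, map_smul, o.idem, hu, hw, hm, smul_zero, map_zero]
  module

theorem form_sig (i d : ℤ) : B (a i) (sig mul a d i) = (31 * B (a i) (a (i + d)) - 1) / 32 := by
  rw [sig, map_sub, map_smul, map_add, o.assoc, o.idem, o.norm, smul_eq_mul]
  ring

theorem form_sig_one (i : ℤ) : B (a i) (sig mul a 1 0) = (31 * B (a 0) (a 1) - 1) / 32 := by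
  rw [← o.sig_one i, o.form_sig, o.lam]

theorem form_sig_mid (i : ℤ) :
    B (a i) (sig mul a 2 (i - 1)) = (30 * B (a 0) (a 1) + B (a (i - 1)) (a (i + 1)) - 1) / 32 := by
  have h1 : B (a i) (a (i + 1)) = B (a 0) (a 1) := o.lam i
  have h2 : B (a i) (a (i - 1)) = B (a 0) (a 1) := by
    have := o.lam (i - 1)
    rwa [sub_add_cancel, o.symm] at this
  have e : mul (a i) (a (i - 1)) = sig mul a 1 0 + (1 / 32 : ℝ) • (a i + a (i - 1)) := by
    rw [o.mcomm, show a i = a (i - 1 + 1) by rw [sub_add_cancel], o.prod_one, add_comm (a (i - 1))]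
  rw [sig, show i - 1 + 2 = i + 1 by ring, map_sub, map_smul, map_add, o.assoc, e, h1, h2]
  simp only [map_add, map_smul, LinearMap.add_apply, LinearMap.smul_apply, smul_eq_mul, h1,
    o.symm (sig mul a 1 0), o.form_sig_one, o.symm (a (i - 1)) (a (i + 1))]
  ring

theorem nbhd (i : ℤ) : Nbhd mul B (μ i) (a i) (B (a 0) (a 1)) (B (a (i - 1)) (a (i + 1))) (a (i + 1)) (a (i - 1))
    (a (i + 2)) (a (i - 2)) (sig mul a 1 0) (sig mul a 2 i) (sig mul a 2 (i - 1)) where
  axis := o.ax i
  hb := o.idem _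
  hb' := o.idem _
  hab := o.prod_one i
  hab' := by
    have h := o.prod_one (i - 1)
    rw [sub_add_cancel] at h
    rw [o.mcomm, h, add_comm (a i)]
  hbb' := by
    have h := o.prod_two (i - 1)
    rw [show i - 1 + 2 = i + 1 by ring] at h
    rw [o.mcomm, h, add_comm (a (i + 1))]
  hac := o.prod_two i
  hac' := by
    have h := o.prod_two (i - 2)
    rw [sub_add_cancel, o.sig_back] at h
    rw [o.mcomm, h, add_comm (a i)]
  haS := by
    have h := o.axis_sig i 1
    rwa [o.sig_one i, o.lam i] at h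
  hbS := by
    have h := o.axis_sig (i + 1) 1
    rw [o.sig_one (i + 1), o.lam, show i + 1 + 1 = i + 2 by ring, show i + 1 - 1 = i by ring] at h
    rw [h, add_comm (a i)]
  hb'S := by
    have h := o.axis_sig (i - 1) 1
    rw [o.sig_one (i - 1), o.lam, sub_add_cancel, show i - 1 - 1 = i - 2 by ring] at h
    exact h
  hμT' := by
    rw [sig, show i - 1 + 2 = i + 1 by ring, map_sub, map_smul, map_add, (o.ax i).pair.1, o.refl, o.refl,
      show 2 * i - (i - 1) = i + 1 by ring, show 2 * i - (i + 1) = i - 1 by ring, o.mcomm, add_comm (a (i + 1))]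
  lb := o.lam i
  lb' := by
    have := o.lam (i - 1)
    rwa [sub_add_cancel, o.symm] at this
  lS := o.form_sig_one i
  lT' := o.form_sig_mid i

/-- The linear relation centred between two neighbouring axes. -/
theorem relation (i : ℤ) :
    (7 / 6 * B (a 0) (a 1) ^ 2 - 7 / 384 * B (a 0) (a 1) + 7 / 1536 * B (a (i - 1)) (a (i + 1)) - 7 / 98304) • a i
      + (49 / 768 * B (a 0) (a 1) - 245 / 196608) • (a (i + 1) + a (i - 1))
      + (49 / 196608 : ℝ) • (a (i + 2) + a (i - 2))
      + (7 / 2048 : ℝ) • sig mul a 2 (i - 1) + (-(7 / 1536) : ℝ) • sig mul a 2 i =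
    (7 / 6 * B (a 0) (a 1) ^ 2 - 7 / 384 * B (a 0) (a 1) + 7 / 1536 * B (a i) (a (i + 2)) - 7 / 98304) • a (i + 1)
      + (49 / 768 * B (a 0) (a 1) - 245 / 196608) • (a (i + 2) + a i)
      + (49 / 196608 : ℝ) • (a (i + 3) + a (i - 1))
      + (7 / 2048 : ℝ) • sig mul a 2 i + (-(7 / 1536) : ℝ) • sig mul a 2 (i - 1) := by
  have h1 := (o.nbhd i).closure.2
  have h2 := (o.nbhd (i + 1)).closure.2
  have e : sig mul a 2 (i + 1) = sig mul a 2 (i - 1) := by
    rw [show i + 1 = i - 1 + 2 by ring, o.sig_two]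
  rw [e, show i + 1 - 1 = i by ring, show i + 1 + 1 = i + 2 by ring, show i + 1 + 2 = i + 3 by ring,
    show i + 1 - 2 = i - 1 by ring, h1] at h2
  linear_combination (norm := module) h2

theorem lam_nonneg : 0 ≤ B (a 0) (a 1) := by
  obtain ⟨-, -, hpos, -, hN⟩ := id o.amb
  have h := hN (a 0) (a 1)
  rw [o.idem, o.idem] at h
  rcases eq_or_ne (mul (a 0) (a 1)) 0 with e | e
  · simpa [e] using h
  · exact (hpos _ e).le.trans h

/-- The two classes of pairs at distance two carry the same inner product. -/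
theorem mid_eq : B (a (-1)) (a 1) = B (a 0) (a 2) := by
  have h := o.relation 0
  norm_num only at h
  set l := B (a 0) (a 1) with hl
  set m := B (a 0) (a 2) with hm
  set n := B (a (-1)) (a 1) with hn
  have b01 : B (a 0) (a (-1)) = l := by
    rw [hl, show (-1 : ℤ) = 2 * 0 - 1 by norm_num]; nth_rw 1 [show (0 : ℤ) = 2 * 0 - 0 by norm_num]
    exact o.refl_form 0 0 1
  have b02 : B (a 0) (a (-2)) = m := by
    have := o.refl_form 0 0 2; norm_num at this; exact this
  have b10 : B (a 1) (a 0) = l := o.symm _ _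
  have b12 : B (a 1) (a 2) = l := o.lam 1
  have b1m : B (a 1) (a (-1)) = n := o.symm _ _
  have b13 : B (a 1) (a 3) = n := by
    have := o.shift_form 1 (-1) 1; norm_num at this; exact this
  have b1m2 : B (a 1) (a (-2)) = B (a 0) (a 3) := by
    have := o.shift_form 1 1 (-2); norm_num at this; rw [← this]; exact o.symm _ _
  have t00 : B (a 0) (sig mul a 2 0) = (31 * m - 1) / 32 := by
    have := o.form_sig 0 2; norm_num at this ⊢; exact this
  have t0m : B (a 0) (sig mul a 2 (-1)) = (30 * l + n - 1) / 32 := by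
    have := o.form_sig_mid 0; norm_num at this ⊢; exact this
  have t10 : B (a 1) (sig mul a 2 0) = (30 * l + m - 1) / 32 := by
    have := o.form_sig_mid 1; norm_num at this ⊢; exact this
  have t1m : B (a 1) (sig mul a 2 (-1)) = (31 * n - 1) / 32 := by
    have := o.form_sig 1 2
    have e := o.sig_two (-1)
    norm_num at this e ⊢
    rw [e, b13] at this
    exact this
  have e0 := congrArg (B (a 0)) h
  have e1 := congrArg (B (a 1)) h
  simp only [map_add, map_smul, smul_eq_mul, o.norm, b01, b02, b10, b12, b1m, b13, b1m2, t00, t0m, t10, t1m,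
    ← hl, ← hm] at e0 e1
  have key : (35 / 512 * l + 707 / 65536) * (m - n) = 0 := by linear_combination -e0 - e1
  have hpos := o.lam_nonneg
  rcases mul_eq_zero.1 key with h0 | h0
  · linarith
  · linarith

theorem two_const (i : ℤ) : B (a i) (a (i + 2)) = B (a 0) (a 2) := by
  refine periodic_int (fun i => B (a i) (a (i + 2))) (fun i => ?_) i
  show B (a (i + 1)) (a (i + 1 + 2)) = B (a i) (a (i + 2))
  rcases Int.even_or_odd' i with ⟨k, rfl | rfl⟩
  · have h1 := o.shift_form (k + 1) (-1) 1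
    have h2 := o.shift_form k 0 2
    rw [show (-1 : ℤ) + 2 * (k + 1) = 2 * k + 1 by ring, show (1 : ℤ) + 2 * (k + 1) = 2 * k + 1 + 2 by ring] at h1
    rw [show (0 : ℤ) + 2 * k = 2 * k by ring, show (2 : ℤ) + 2 * k = 2 * k + 2 by ring] at h2
    rw [h1, h2, o.mid_eq]
  · have h1 := o.shift_form (k + 1) (-1) 1
    have h2 := o.shift_form (k + 1) 0 2
    rw [show (-1 : ℤ) + 2 * (k + 1) = 2 * k + 1 by ring, show (1 : ℤ) + 2 * (k + 1) = 2 * k + 1 + 2 by ring] at h1
    rw [show (0 : ℤ) + 2 * (k + 1) = 2 * k + 1 + 1 by ring,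
      show (2 : ℤ) + 2 * (k + 1) = 2 * k + 1 + 1 + 2 by ring] at h2
    rw [h1, h2, o.mid_eq]

end Orbit

end Cfsg.Agent.Lib.Sakuma
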